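import Cfsg.Prelude.Def_GeometricClasses
import Cfsg.Agent.ClassicalGeometry.SympBasic
import Cfsg.Agent.S0749

/-!
# Conjugacy of geometric subgroups of `Sp_4(F)`, `char F = 2` (helper124)

`Cj A B` : the subgroups `A`, `B` of `GL_4(F)` are conjugate by an element of `Sp_4(F)`.

* `cj_subspace` : stabilisers of totally isotropic subspaces of the same dimension;
* `cj_decomposition` : stabilisers of decompositions into two orthogonal planes.
-/

set_option autoImplicit false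

namespace Cfsg.Agent.H124.BR.Sp4

open Cfsg Cfsg.Geo Matrix Cfsg.Agent.ClassicalGeometry.SympBasic
open Module (Basis finrank)
open scoped MatrixGroups

universe u

variable {F : Type u} [Field F]

/-- the index set -/
abbrev I2 : Type := Fin 2 ⊕ Fin 2

local notation "fm" => sympForm 2 F

theorem mem_spGL {g : GL I2 F} : g ∈ spGL 2 F ↔
    ∀ u v, fm ((g : Matrix I2 I2 F) *ᵥ u) ((g : Matrix I2 I2 F) *ᵥ v) = fm u v := Iff.rfl

/-- conjugate under `Sp_4(F)` -/
def Cj (A B : Subgroup (GL I2 F)) : Prop := ∃ g ∈ spGL 2 F, ∀ h, h ∈ A ↔ g * h * g⁻¹ ∈ B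

theorem Cj.symm {A B : Subgroup (GL I2 F)} (h : Cj A B) : Cj B A := by
  obtain ⟨g, hg, h⟩ := h
  refine ⟨g⁻¹, inv_mem hg, fun x => ?_⟩
  rw [h]
  simp [mul_assoc]

theorem Cj.trans {A B C : Subgroup (GL I2 F)} (h : Cj A B) (h' : Cj B C) : Cj A C := by
  obtain ⟨g, hg, h⟩ := h
  obtain ⟨g', hg', h'⟩ := h'
  refine ⟨g' * g, mul_mem hg' hg, fun x => ?_⟩
  rw [h, h']
  simp [mul_assoc]

theorem Cj.inf {A B : Subgroup (GL I2 F)} (h : Cj A B) : Cj (A ⊓ spGL 2 F) (B ⊓ spGL 2 F) := by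
  obtain ⟨g, hg, h⟩ := h
  refine ⟨g, hg, fun x => ?_⟩
  rw [Subgroup.mem_inf, Subgroup.mem_inf, h]
  refine and_congr_right fun _ => ⟨fun hx => mul_mem (mul_mem hg hx) (inv_mem hg), fun hx => ?_⟩
  have := mul_mem (mul_mem (inv_mem hg) hx) hg
  simpa [mul_assoc] using this

/-- a matrix preserving the form -/
theorem exists_gl {B : Matrix I2 I2 F} (hB : ∀ u v, fm (B *ᵥ u) (B *ᵥ v) = fm u v) :
    ∃ g ∈ spGL 2 F, (g : Matrix I2 I2 F) = B :=
  ⟨GeneralLinearGroup.mkOfDetNeZero B (SymplecticGroup.symplectic_det (mem_symplecticGroup_iff.2 hB)).ne_zero, hB, rfl⟩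

theorem of_linear (φ : (I2 → F) →ₗ[F] (I2 → F)) (hφ : ∀ u v, fm (φ u) (φ v) = fm u v) :
    ∃ g ∈ spGL 2 F, ∀ v, (g : Matrix I2 I2 F) *ᵥ v = φ v := by
  obtain ⟨g, hg, h⟩ := exists_gl (B := LinearMap.toMatrix' φ) (fun u v => by
    rw [LinearMap.toMatrix'_mulVec, LinearMap.toMatrix'_mulVec, hφ])
  exact ⟨g, hg, fun v => by rw [h, LinearMap.toMatrix'_mulVec]⟩

/-- frames with the Gram matrix of the standard basis -/
theorem exists_frame {b : I2 → (I2 → F)} (hb : ∀ i j, fm (b i) (b j) = fm (Pi.single i 1) (Pi.single j 1)) :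
    ∃ g ∈ spGL 2 F, ∀ i, (g : Matrix I2 I2 F) *ᵥ Pi.single i 1 = b i := by
  let φ : (I2 → F) →ₗ[F] (I2 → F) := (Pi.basisFun F I2).constr F b
  have h1 : ∀ i, φ (Pi.single i 1) = b i := fun i => by
    have := (Pi.basisFun F I2).constr_basis F b i
    rwa [Pi.basisFun_apply] at this
  have h2 : (sympBilin 2 F).compl₁₂ φ φ = sympBilin 2 F := by
    refine LinearMap.ext_basis (Pi.basisFun F I2) (Pi.basisFun F I2) fun i j => ?_
    rw [LinearMap.compl₁₂_apply, Pi.basisFun_apply, Pi.basisFun_apply, h1, h1]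
    exact hb i j
  obtain ⟨g, hg, h⟩ := of_linear φ (fun u v => congrFun (congrArg DFunLike.coe (congrFun (congrArg DFunLike.coe h2) u)) v)
  exact ⟨g, hg, fun i => by rw [h, h1]⟩

/-- four vectors of a hyperbolic frame (characteristic two) -/
structure Fr (x₀ x₁ y₀ y₁ : I2 → F) : Prop where
  h00 : fm x₀ y₀ = 1
  h11 : fm x₁ y₁ = 1
  hxx : fm x₀ x₁ = 0
  hyy : fm y₀ y₁ = 0
  h01 : fm x₀ y₁ = 0
  h10 : fm x₁ y₀ = 0

theorem symm_two (h2 : (2 : F) = 0) (u v : I2 → F) : fm u v = fm v u := by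
  rw [sympForm_swap, neg_eq_iff_add_eq_zero, ← two_mul, h2, zero_mul]

theorem single_form (i j : Fin 2) (h2 : (2 : F) = 0) :
    fm (Pi.single (Sum.inl i) 1) (Pi.single (Sum.inr j) 1) = if i = j then 1 else 0 := by
  have h1 : (-1 : F) = 1 := by linear_combination (-1 : F) * h2
  rw [sympForm_single_inl_left]
  by_cases h : i = j
  · subst h
    simp [h1]
  · simp [h]

theorem single_inl (i j : Fin 2) : fm (Pi.single (Sum.inl i) 1) (Pi.single (Sum.inl j) 1) = 0 := by
  rw [sympForm_single_inl_left]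
  simp

theorem single_inr (i j : Fin 2) : fm (Pi.single (Sum.inr i) 1) (Pi.single (Sum.inr j) 1) = 0 := by
  rw [sympForm_single_inr_left]
  simp

theorem Fr.exists_sp (h2 : (2 : F) = 0) {x₀ x₁ y₀ y₁ : I2 → F} (h : Fr x₀ x₁ y₀ y₁) :
    ∃ g ∈ spGL 2 F, (g : Matrix I2 I2 F) *ᵥ Pi.single (Sum.inl 0) 1 = x₀ ∧
      (g : Matrix I2 I2 F) *ᵥ Pi.single (Sum.inl 1) 1 = x₁ ∧ (g : Matrix I2 I2 F) *ᵥ Pi.single (Sum.inr 0) 1 = y₀ ∧
      (g : Matrix I2 I2 F) *ᵥ Pi.single (Sum.inr 1) 1 = y₁ := by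
  let b : I2 → (I2 → F) := Sum.elim ![x₀, x₁] ![y₀, y₁]
  obtain ⟨g, hg, h3⟩ := exists_frame (b := b) (by
    have s := symm_two h2
    rintro (i | i) (j | j)
    · rw [single_inl]
      fin_cases i <;> fin_cases j
      · exact sympForm_self _
      · exact h.hxx
      · exact (s _ _).trans h.hxx
      · exact sympForm_self _
    · rw [single_form _ _ h2]
      fin_cases i <;> fin_cases j
      · exact h.h00
      · exact h.h01
      · exact h.h10
      · exact h.h11
    · rw [s (Pi.single (Sum.inr i) 1), single_form _ _ h2]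
      fin_cases i <;> fin_cases j
      · exact (s _ _).trans h.h00
      · exact (s _ _).trans h.h10
      · exact (s _ _).trans h.h01
      · exact (s _ _).trans h.h11
    · rw [single_inr]
      fin_cases i <;> fin_cases j
      · exact sympForm_self _
      · exact h.hyy
      · exact (s _ _).trans h.hyy
      · exact sympForm_self _)
  exact ⟨g, hg, h3 (Sum.inl 0), h3 (Sum.inl 1), h3 (Sum.inr 0), h3 (Sum.inr 1)⟩

/-! ### subspaces -/

theorem mem_subspaceStabilizer {W : Submodule F (I2 → F)} {g : GL I2 F} :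
    g ∈ subspaceStabilizer W ↔ ∀ v, v ∈ W ↔ (g : Matrix I2 I2 F) *ᵥ v ∈ W := Iff.rfl

theorem mulVec_mul_inv (g : GL I2 F) (v : I2 → F) :
    (g : Matrix I2 I2 F) *ᵥ (((g⁻¹ : GL I2 F) : Matrix I2 I2 F) *ᵥ v) = v := by
  rw [mulVec_mulVec, ← Units.val_mul, mul_inv_cancel, Units.val_one, one_mulVec]

theorem mulVec_inv_mul (g : GL I2 F) (v : I2 → F) :
    ((g⁻¹ : GL I2 F) : Matrix I2 I2 F) *ᵥ ((g : Matrix I2 I2 F) *ᵥ v) = v := by
  rw [mulVec_mulVec, ← Units.val_mul, inv_mul_cancel, Units.val_one, one_mulVec]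

theorem conj_mulVec (g h : GL I2 F) (v : I2 → F) :
    ((g * h * g⁻¹ : GL I2 F) : Matrix I2 I2 F) *ᵥ v =
      (g : Matrix I2 I2 F) *ᵥ ((h : Matrix I2 I2 F) *ᵥ (((g⁻¹ : GL I2 F) : Matrix I2 I2 F) *ᵥ v)) := by
  rw [mulVec_mulVec, mulVec_mulVec, Units.val_mul, Units.val_mul]

theorem cj_of_mapsTo {W W' : Submodule F (I2 → F)} {g : GL I2 F} (hg : g ∈ spGL 2 F)
    (h : ∀ v, v ∈ W ↔ (g : Matrix I2 I2 F) *ᵥ v ∈ W') : Cj (subspaceStabilizer W) (subspaceStabilizer W') := by
  refine ⟨g, hg, fun x => ?_⟩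
  rw [mem_subspaceStabilizer, mem_subspaceStabilizer]
  constructor
  · intro hx v
    rw [conj_mulVec, ← h, ← hx, h, mulVec_mul_inv]
  · intro hx v
    have h1 := hx ((g : Matrix I2 I2 F) *ᵥ v)
    rw [conj_mulVec, mulVec_inv_mul, ← h, ← h] at h1
    exact h1

theorem cj_subspace {W W' : Submodule F (I2 → F)} (hW : IsTotallySingularFor fm W)
    (hW' : IsTotallySingularFor fm W') (hd : finrank F W = finrank F W') :
    Cj (subspaceStabilizer W) (subspaceStabilizer W') := by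
  let φ : W ≃ₗ[F] W' := LinearEquiv.ofFinrankEq W W' hd
  obtain ⟨g, hg1, hg2⟩ := Cfsg.Agent.S0749.result (sympBilin 2 F) sympBilin_nondegenerate sympBilin_isAlt W W' φ
    (fun x x' => by
      rw [sympBilin_apply, sympBilin_apply, hW _ x.2 _ x'.2, hW' _ (φ x).2 _ (φ x').2])
  obtain ⟨g', hg', h⟩ := of_linear g.toLinearMap hg1
  refine cj_of_mapsTo hg' fun v => ⟨fun hv => ?_, fun hv => ?_⟩
  · rw [h]
    have := hg2 ⟨v, hv⟩
    rw [LinearEquiv.coe_coe]
    rw [this]
    exact (φ _).2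
  · rw [h, LinearEquiv.coe_coe] at hv
    have h3 := hg2 (φ.symm ⟨g v, hv⟩)
    rw [LinearEquiv.apply_symm_apply] at h3
    have h4 : v = (φ.symm ⟨g v, hv⟩ : I2 → F) := g.injective h3.symm
    rw [h4]
    exact (φ.symm _).2

/-! ### decompositions -/

/-- a hyperbolic pair spanning a nondegenerate plane -/
theorem exists_pair {W : Submodule F (I2 → F)} (hd : finrank F W = 2) (hW : IsNondegenerateOn fm W) :
    ∃ x y, x ∈ W ∧ y ∈ W ∧ fm x y = 1 ∧ W = Submodule.span F {x, y} := by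
  have h1 : W ≠ ⊥ := by
    rintro rfl
    rw [finrank_bot] at hd
    omega
  obtain ⟨x, hx, hx0⟩ := W.ne_bot_iff.1 h1
  obtain ⟨y, hy, hxy⟩ := (hW x hx hx0).2
  refine ⟨x, (fm x y)⁻¹ • y, hx, W.smul_mem _ hy, ?_, ?_⟩
  · rw [sympForm_smul_right, inv_mul_cancel₀ hxy]
  · symm
    apply Submodule.eq_of_le_of_finrank_eq
    · rw [Submodule.span_le]
      rintro v (rfl | rfl)
      · exact hx
      · exact W.smul_mem _ hy
    · rw [hd]
      have hli : LinearIndependent F ![x, (fm x y)⁻¹ • y] := by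
        rw [LinearIndependent.pair_iff]
        intro a b hab
        have e1 := congrArg (fun v => fm x v) hab
        simp only [sympForm_add_right, sympForm_smul_right, sympForm_self] at e1
        rw [inv_mul_cancel₀ hxy, sympForm_def, Matrix.mulVec_zero, dotProduct_zero] at e1
        have hb : b = 0 := by simpa using e1
        subst hb
        rw [zero_smul, add_zero, smul_eq_zero] at hab
        exact ⟨hab.resolve_right hx0, rfl⟩
      have h3 := finrank_span_eq_card hli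
      rw [Fintype.card_fin] at h3
      have h4 : ({x, (fm x y)⁻¹ • y} : Set (I2 → F)) = Set.range ![x, (fm x y)⁻¹ • y] := by
        rw [Matrix.range_cons, Matrix.range_cons, Matrix.range_empty, Set.union_empty]
        rfl
      rw [h4]
      exact h3

theorem mem_decompositionStabilizer {t : ℕ} {D : Fin t → Submodule F (I2 → F)} {g : GL I2 F} :
    g ∈ decompositionStabilizer D ↔
      ∃ σ : Equiv.Perm (Fin t), ∀ i, (D i).map (Matrix.toLin' (g : Matrix I2 I2 F)) = D (σ i) := Iff.rfl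

theorem cj_of_mapsTo_dec {t : ℕ} {D D' : Fin t → Submodule F (I2 → F)} {g : GL I2 F} (hg : g ∈ spGL 2 F)
    (h : ∀ i, (D i).map (Matrix.toLin' (g : Matrix I2 I2 F)) = D' i) :
    Cj (decompositionStabilizer D) (decompositionStabilizer D') := by
  refine ⟨g, hg, fun x => ?_⟩
  rw [mem_decompositionStabilizer, mem_decompositionStabilizer]
  refine exists_congr fun σ => forall_congr' fun i => ?_
  rw [← h, ← h (σ i), ← Submodule.map_comp, ← Matrix.toLin'_mul, ← Units.val_mul, inv_mul_cancel_right,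
    Units.val_mul, Matrix.toLin'_mul, Submodule.map_comp]
  refine (Submodule.map_injective_of_injective (f := Matrix.toLin' (g : Matrix I2 I2 F)) ?_).eq_iff.symm
  intro v w hvw
  rw [Matrix.toLin'_apply, Matrix.toLin'_apply] at hvw
  have := congrArg (fun v => ((g⁻¹ : GL I2 F) : Matrix I2 I2 F) *ᵥ v) hvw
  simpa only [mulVec_inv_mul] using this

/-- the standard decomposition -/
def Dst : Fin 2 → Submodule F (I2 → F) := fun i => Submodule.span F {Pi.single (Sum.inl i) 1, Pi.single (Sum.inr i) 1}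

theorem cj_Dst (h2 : (2 : F) = 0) {D : Fin 2 → Submodule F (I2 → F)} (hD : IsNondegenerateMDecomposition fm 2 D) :
    Cj (decompositionStabilizer (Dst (F := F))) (decompositionStabilizer D) := by
  obtain ⟨x₀, y₀, hx0, hy0, h0, hs0⟩ := exists_pair (hD.decomp.finrank_eq 0) (hD.nondegenerate 0)
  obtain ⟨x₁, y₁, hx1, hy1, h1, hs1⟩ := exists_pair (hD.decomp.finrank_eq 1) (hD.nondegenerate 1)
  have ho := hD.orthogonal 0 1 (by decide)
  have ho' := hD.orthogonal 1 0 (by decide)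
  obtain ⟨g, hg, e1, e2, e3, e4⟩ := Fr.exists_sp h2 (x₀ := x₀) (x₁ := x₁) (y₀ := y₀) (y₁ := y₁)
    ⟨h0, h1, ho _ hx0 _ hx1, ho _ hy0 _ hy1, ho _ hx0 _ hy1, ho' _ hx1 _ hy0⟩
  refine cj_of_mapsTo_dec hg fun i => ?_
  fin_cases i
  · show (Submodule.span F {Pi.single (Sum.inl 0) 1, Pi.single (Sum.inr 0) 1}).map _ = D 0
    rw [Submodule.map_span, Set.image_pair, Matrix.toLin'_apply, Matrix.toLin'_apply, e1, e3, hs0]
  · show (Submodule.span F {Pi.single (Sum.inl 1) 1, Pi.single (Sum.inr 1) 1}).map _ = D 1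
    rw [Submodule.map_span, Set.image_pair, Matrix.toLin'_apply, Matrix.toLin'_apply, e2, e4, hs1]

theorem cj_decomposition (h2 : (2 : F) = 0) {D D' : Fin 2 → Submodule F (I2 → F)}
    (hD : IsNondegenerateMDecomposition fm 2 D) (hD' : IsNondegenerateMDecomposition fm 2 D') :
    Cj (decompositionStabilizer D) (decompositionStabilizer D') := (cj_Dst h2 hD).symm.trans (cj_Dst h2 hD')

end Cfsg.Agent.H124.BR.Sp4
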