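import Cfsg.Agent.H124.BR.SpConj

/-!
# Conjugacy of geometric subgroups of `Sp_4(F)`, `|F|` even: fields and quadratic forms (helper124)

* `as_sum` : Artin–Schreier;
* `cj_field` : normalisers of self-adjoint quadratic extension fields with `f(k v, v) = 0`;
* `quad_normal` : the quadratic forms with polar form `f` form two orbits.
-/

set_option autoImplicit false

namespace Cfsg.Agent.H124.BR.Sp4

open Cfsg Cfsg.Geo Matrix Cfsg.Agent.ClassicalGeometry.SympBasic
open Module (Basis finrank)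
open scoped MatrixGroups

universe u

variable {F : Type u} [Field F]

local notation "fm" => sympForm 2 F

/-! ### Artin–Schreier -/

/-- `t ↦ t² + t` -/
def wp (h2 : (2 : F) = 0) : F →+ F where
  toFun t := t ^ 2 + t
  map_zero' := by simp
  map_add' a b := by linear_combination (a * b) * h2

theorem wp_ker (h2 : (2 : F) = 0) {t : F} : t ∈ (wp h2).ker ↔ t = 0 ∨ t = 1 := by
  rw [AddMonoidHom.mem_ker]
  show t ^ 2 + t = 0 ↔ _
  constructor
  · intro h
    have h1 : t * (t + 1) = 0 := by linear_combination h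
    rcases mul_eq_zero.1 h1 with h | h
    · exact Or.inl h
    · right
      linear_combination h - h2
  · rintro (rfl | rfl)
    · simp
    · linear_combination h2

theorem wp_index [Finite F] (h2 : (2 : F) = 0) : (wp h2).range.index = 2 := by
  have h1 : Nat.card (wp h2).ker = 2 := by
    have h3 : ((wp h2).ker : Set F) = {0, 1} := by
      ext t
      rw [SetLike.mem_coe, wp_ker h2]
      rfl
    have h4 : Nat.card (wp h2).ker = Nat.card ({0, 1} : Set F) := by rw [← h3]; rfl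
    rw [h4, Nat.card_coe_set_eq, Set.ncard_pair zero_ne_one]
  have h3 : Nat.card (wp h2).ker * Nat.card (wp h2).range = Nat.card F := by
    rw [← AddSubgroup.card_mul_index (wp h2).ker, AddSubgroup.index_ker]
  have h4 := AddSubgroup.card_mul_index (wp h2).range
  have h5 : 0 < Nat.card (wp h2).range := Nat.card_pos
  rw [← h3, h1, mul_comm] at h4
  exact Nat.eq_of_mul_eq_mul_right h5 h4

theorem exists_not_wp [Finite F] (h2 : (2 : F) = 0) : ∃ c : F, ∀ t : F, t ^ 2 + t ≠ c := by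
  by_contra hcon
  push Not at hcon
  have h1 : (wp h2).range = ⊤ := by
    rw [AddMonoidHom.range_eq_top]
    exact hcon
  have h3 := wp_index h2
  rw [h1, AddSubgroup.index_top] at h3
  omega

theorem as_sum [Finite F] (h2 : (2 : F) = 0) {c d : F} (hc : ∀ t : F, t ^ 2 + t ≠ c) (hd : ∀ t : F, t ^ 2 + t ≠ d) :
    ∃ t : F, t ^ 2 + t = c + d := by
  have h1 : c + d ∈ (wp h2).range := by
    rw [AddSubgroup.add_mem_iff_of_index_two (wp_index h2)]
    constructor
    · rintro ⟨t, ht⟩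
      exact absurd ht (hc t)
    · rintro ⟨t, ht⟩
      exact absurd ht (hd t)
  exact h1

theorem exists_sqrt [Finite F] (h2 : (2 : F) = 0) (a : F) : ∃ s : F, s ^ 2 = a := by
  have hinj : Function.Injective (fun s : F => s ^ 2) := by
    intro x y hxy
    have h1 : (x + y) ^ 2 = 0 := by
      have h3 : x ^ 2 = y ^ 2 := hxy
      linear_combination h3 + (y ^ 2 + x * y) * h2
    have h3 : x + y = 0 := by simpa using h1
    linear_combination h3 - y * h2
  exact Finite.surjective_of_injective hinj a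

/-! ### frames -/

theorem form_zero_right (u : I2 → F) : fm u 0 = 0 := by
  rw [sympForm_def, Matrix.mulVec_zero, dotProduct_zero]

theorem exists_pairing {x : I2 → F} (hx : x ≠ 0) : ∃ w, fm x w = 1 := by
  by_contra hcon
  push Not at hcon
  apply hx
  apply eq_zero_of_forall_sympForm_right
  intro v
  by_contra h
  apply hcon ((fm x v)⁻¹ • v)
  rw [sympForm_smul_right, inv_mul_cancel₀ h]

theorem extend_pair (h2 : (2 : F) = 0) {x₀ y₀ : I2 → F} (h : fm x₀ y₀ = 1) : ∃ x₁ y₁, Fr x₀ x₁ y₀ y₁ := by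
  have s := symm_two h2
  -- the orthogonal projection
  have key : ∀ u : I2 → F, fm x₀ (u + (fm u y₀ • x₀ + fm u x₀ • y₀)) = 0 ∧
      fm y₀ (u + (fm u y₀ • x₀ + fm u x₀ • y₀)) = 0 := by
    intro u
    constructor
    · rw [sympForm_add_right, sympForm_add_right, sympForm_smul_right, sympForm_smul_right, sympForm_self, h, s x₀ u]
      linear_combination (fm u x₀) * h2
    · rw [sympForm_add_right, sympForm_add_right, sympForm_smul_right, sympForm_smul_right, sympForm_self,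
        s y₀ x₀, h, s y₀ u]
      linear_combination (fm u y₀) * h2
  have h1 : Submodule.span F {x₀, y₀} ≠ ⊤ := by
    intro htop
    have h3 := finrank_range_le_card (R := F) (b := ![x₀, y₀])
    have h4 : Set.range ![x₀, y₀] = ({x₀, y₀} : Set (I2 → F)) := by
      rw [Matrix.range_cons, Matrix.range_cons, Matrix.range_empty, Set.union_empty]
      rfl
    rw [Set.finrank, h4, htop, finrank_top, Module.finrank_fintype_fun_eq_card, Fintype.card_fin] at h3
    have h5 : Fintype.card I2 = 4 := rfl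
    omega
  obtain ⟨u, -, hu⟩ := SetLike.exists_of_lt (lt_top_iff_ne_top.2 h1)
  set u' := u + (fm u y₀ • x₀ + fm u x₀ • y₀) with hu'
  have hu0 : u' ≠ 0 := by
    intro h0
    apply hu
    have h3 : u = -(fm u y₀ • x₀ + fm u x₀ • y₀) := eq_neg_of_add_eq_zero_left h0
    rw [h3]
    refine neg_mem (add_mem (Submodule.smul_mem _ _ (Submodule.subset_span (by simp)))
      (Submodule.smul_mem _ _ (Submodule.subset_span (by simp))))
  obtain ⟨z, hz⟩ := exists_pairing hu0
  set z' := z + (fm z y₀ • x₀ + fm z x₀ • y₀) with hz'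
  have hku := key u
  have hkz := key z
  rw [← hu'] at hku
  rw [← hz'] at hkz
  refine ⟨u', z', h, ?_, hku.1, hkz.2, hkz.1, (s _ _).trans hku.2⟩
  rw [hz', sympForm_add_right, sympForm_add_right, sympForm_smul_right, sympForm_smul_right, s u' x₀, hku.1,
    s u' y₀, hku.2, hz]
  ring

/-! ### extension fields -/

section field

variable {K : Subalgebra F (Matrix I2 I2 F)}

theorem exists_kappa [Finite F] (h2 : (2 : F) = 0) (hK : IsFieldSubalgebra 2 K) {c : F}
    (hc : ∀ t : F, t ^ 2 + t ≠ c) :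
    ∃ κ ∈ K, κ * κ = κ + algebraMap F _ c ∧ ∀ k ∈ K, ∃ a b : F, k = algebraMap F _ a + b • κ := by
  -- a non-scalar element
  have h1 : ∃ κ ∈ K, ∀ a : F, κ ≠ algebraMap F (Matrix I2 I2 F) a := by
    by_contra hcon
    push Not at hcon
    have h3 : K = ⊥ := by
      rw [eq_bot_iff]
      intro k hk
      obtain ⟨a, rfl⟩ := hcon k hk
      exact Subalgebra.algebraMap_mem _ a
    have h4 := hK.finrank_eq
    rw [h3, Subalgebra.finrank_bot] at h4
    omega
  obtain ⟨κ₁, hκ₁, hns⟩ := h1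
  have hspan : ∀ κ ∈ K, (∀ a : F, κ ≠ algebraMap F (Matrix I2 I2 F) a) →
      ∀ k ∈ K, ∃ a b : F, k = algebraMap F _ a + b • κ := by
    intro κ hκ hn k hk
    have hli : LinearIndependent F ![(⟨1, K.one_mem⟩ : K), ⟨κ, hκ⟩] := by
      rw [LinearIndependent.pair_iff]
      intro a b hab
      have e1 : a • (1 : Matrix I2 I2 F) + b • κ = 0 := congrArg Subtype.val hab
      by_cases hb : b = 0
      · subst hb
        rw [zero_smul, add_zero] at e1
        have := congrFun (congrFun e1 (Sum.inl 0)) (Sum.inl 0)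
        simp at this
        exact ⟨this, rfl⟩
      · exfalso
        apply hn (-(b⁻¹ * a))
        rw [Algebra.algebraMap_eq_smul_one, neg_smul, mul_smul, ← smul_neg]
        have e2 : b • κ = -(a • (1 : Matrix I2 I2 F)) := eq_neg_of_add_eq_zero_right e1
        rw [← e2, inv_smul_smul₀ hb]
    have hfr : Fintype.card (Fin 2) = finrank F K := by rw [hK.finrank_eq]; rfl
    let B := basisOfLinearIndependentOfCardEqFinrank hli hfr
    have hB := B.sum_repr ⟨k, hk⟩
    rw [Fin.sum_univ_two] at hB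
    refine ⟨B.repr ⟨k, hk⟩ 0, B.repr ⟨k, hk⟩ 1, ?_⟩
    have e3 : B 0 = (⟨1, K.one_mem⟩ : K) := by
      rw [coe_basisOfLinearIndependentOfCardEqFinrank]; rfl
    have e4 : B 1 = (⟨κ, hκ⟩ : K) := by
      rw [coe_basisOfLinearIndependentOfCardEqFinrank]; rfl
    rw [e3, e4] at hB
    have e5 := congrArg Subtype.val hB
    rw [Algebra.algebraMap_eq_smul_one]
    exact e5.symm
  have hz : ∀ x ∈ K, ∀ y ∈ K, x * y = 0 → x = 0 ∨ y = 0 := by
    intro x hx y hy hxy
    by_cases h0 : x = 0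
    · exact Or.inl h0
    · right
      obtain ⟨x', hx', hxx⟩ := hK.inv x hx h0
      have h3 : x' * x = 1 := by rw [hK.comm x' hx' x hx]; exact hxx
      calc y = (x' * x) * y := by rw [h3, one_mul]
        _ = x' * (x * y) := by rw [mul_assoc]
        _ = 0 := by rw [hxy, mul_zero]
  obtain ⟨b, a, hab⟩ := hspan κ₁ hκ₁ hns _ (K.mul_mem hκ₁ hκ₁)
  have hcm : ∀ (a : F) (k : Matrix I2 I2 F), k * algebraMap F (Matrix I2 I2 F) a = algebraMap F (Matrix I2 I2 F) a * k :=
    fun a k => (Algebra.commutes a k).symm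
  have ha : a ≠ 0 := by
    rintro rfl
    obtain ⟨β, rfl⟩ := exists_sqrt h2 b
    rw [zero_smul, add_zero] at hab
    have h3 : (κ₁ - algebraMap F _ β) * (κ₁ - algebraMap F _ β) = 0 := by
      have h4 : (2 : Matrix I2 I2 F) = 0 := by
        have := congrArg (algebraMap F (Matrix I2 I2 F)) h2
        rwa [map_ofNat, map_zero] at this
      have h5 : κ₁ * algebraMap F (Matrix I2 I2 F) β = algebraMap F (Matrix I2 I2 F) β * κ₁ := hcm _ _
      have h6 : algebraMap F (Matrix I2 I2 F) β * algebraMap F (Matrix I2 I2 F) β =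
          algebraMap F (Matrix I2 I2 F) (β ^ 2) := by rw [← map_mul, sq]
      calc (κ₁ - algebraMap F _ β) * (κ₁ - algebraMap F _ β)
          = κ₁ * κ₁ - κ₁ * algebraMap F _ β - algebraMap F _ β * κ₁ + algebraMap F _ β * algebraMap F _ β := by
            noncomm_ring
        _ = 2 * (algebraMap F (Matrix I2 I2 F) (β ^ 2)) - 2 * (algebraMap F _ β * κ₁) := by
            rw [hab, h5, h6]
            noncomm_ring
        _ = 0 := by rw [h4, zero_mul, zero_mul, sub_zero]
    have h4 := hz _ (K.sub_mem hκ₁ (K.algebraMap_mem β)) _ (K.sub_mem hκ₁ (K.algebraMap_mem β)) h3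
    rw [or_self] at h4
    exact hns β (sub_eq_zero.1 h4)
  -- normalise
  set κ₂ := a⁻¹ • κ₁ with hκ₂
  have hκ₂K : κ₂ ∈ K := K.smul_mem hκ₁ _
  have hsq : κ₂ * κ₂ = κ₂ + algebraMap F _ (b / a ^ 2) := by
    rw [hκ₂, smul_mul_smul_comm, hab, smul_add, smul_smul]
    rw [add_comm]
    congr 1
    · congr 1
      field_simp
    · rw [Algebra.algebraMap_eq_smul_one, Algebra.algebraMap_eq_smul_one, smul_smul]
      congr 1
      field_simp
  have hns2 : ∀ t : F, κ₂ ≠ algebraMap F _ t := by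
    intro t ht
    apply hns (a * t)
    rw [map_mul, ← ht, hκ₂, ← Algebra.smul_def, smul_inv_smul₀ ha]
  have h4 : (2 : Matrix I2 I2 F) = 0 := by
    have := congrArg (algebraMap F (Matrix I2 I2 F)) h2
    rwa [map_ofNat, map_zero] at this
  have hexp : ∀ t : F, (κ₂ + algebraMap F _ t) * (κ₂ + algebraMap F _ t) =
      (κ₂ + algebraMap F _ t) + algebraMap F _ (b / a ^ 2 + (t ^ 2 + t)) := by
    intro t
    have h5 : κ₂ * algebraMap F (Matrix I2 I2 F) t = algebraMap F (Matrix I2 I2 F) t * κ₂ := hcm _ _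
    calc (κ₂ + algebraMap F _ t) * (κ₂ + algebraMap F _ t)
        = κ₂ * κ₂ + κ₂ * algebraMap F _ t + algebraMap F _ t * κ₂ + algebraMap F _ t * algebraMap F _ t := by
          noncomm_ring
      _ = κ₂ + algebraMap F _ (b / a ^ 2) + 2 * (algebraMap F _ t * κ₂) + algebraMap F _ t * algebraMap F _ t := by
          rw [hsq, h5]; noncomm_ring
      _ = κ₂ + algebraMap F _ (b / a ^ 2) + algebraMap F _ t * algebraMap F _ t := by
          rw [h4, zero_mul, add_zero]
      _ = (κ₂ + algebraMap F _ t) + algebraMap F _ (b / a ^ 2 + (t ^ 2 + t)) := by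
          have h6 : algebraMap F (Matrix I2 I2 F) t + algebraMap F (Matrix I2 I2 F) t = 0 := by
            rw [← two_mul, h4, zero_mul]
          rw [map_add, map_add, sq t, map_mul]
          calc _ = κ₂ + algebraMap F _ (b / a ^ 2) + algebraMap F _ t * algebraMap F _ t + 0 := by rw [add_zero]
            _ = _ := by rw [← h6]; abel
  have hd : ∀ t : F, t ^ 2 + t ≠ b / a ^ 2 := by
    intro t ht
    have h5 := hexp t
    rw [ht] at h5
    have h6 : b / a ^ 2 + b / a ^ 2 = 0 := by rw [← two_mul, h2, zero_mul]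
    rw [h6, map_zero, add_zero] at h5
    have h7 : (κ₂ + algebraMap F _ t) * (κ₂ + algebraMap F _ t - 1) = 0 := by
      rw [mul_sub, h5, mul_one, sub_self]
    have hm : κ₂ + algebraMap F _ t ∈ K := K.add_mem hκ₂K (K.algebraMap_mem t)
    rcases hz _ hm _ (K.sub_mem hm K.one_mem) h7 with h | h
    · apply hns2 (-t)
      rw [map_neg]
      exact eq_neg_of_add_eq_zero_left h
    · apply hns2 (1 - t)
      rw [map_sub, map_one]
      exact eq_sub_of_add_eq (sub_eq_zero.1 h)
  obtain ⟨t, ht⟩ := as_sum h2 hd hc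
  refine ⟨κ₂ + algebraMap F _ t, K.add_mem hκ₂K (K.algebraMap_mem t), ?_, ?_⟩
  · rw [hexp t, ht]
    congr 2
    linear_combination (b / a ^ 2) * h2
  · refine hspan _ (K.add_mem hκ₂K (K.algebraMap_mem t)) fun r hr => hns2 (r - t) ?_
    rw [map_sub]
    exact eq_sub_of_add_eq hr

/-- the standard generator of the field -/
def kst (c : F) : Matrix I2 I2 F := Matrix.of fun i j =>
  Sum.elim ![Pi.single (Sum.inl 0) 1 + Pi.single (Sum.inl 1) 1, c • Pi.single (Sum.inl 0) 1]
    ![Pi.single (Sum.inr 0) 1 + c • Pi.single (Sum.inr 1) 1, Pi.single (Sum.inr 0) 1] j i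

theorem kst_col (c : F) (j : I2) : kst c *ᵥ Pi.single j 1 =
    Sum.elim ![Pi.single (Sum.inl 0) 1 + Pi.single (Sum.inl 1) 1, c • Pi.single (Sum.inl 0) 1]
    ![Pi.single (Sum.inr 0) 1 + c • Pi.single (Sum.inr 1) 1, Pi.single (Sum.inr 0) 1] j := by
  rw [mulVec_single_one]
  rfl

theorem ext_col {A B : Matrix I2 I2 F} (h : ∀ j, A *ᵥ Pi.single j 1 = B *ᵥ Pi.single j 1) : A = B := by
  ext i j
  have := congrFun (h j) i
  simpa using this

theorem exists_std_field [Finite F] (h2 : (2 : F) = 0) {c : F} (hc : ∀ t : F, t ^ 2 + t ≠ c)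
    (hK : IsFieldSubalgebra 2 K) (hs : IsSelfAdjointFor fm K) (ha : ∀ k ∈ K, ∀ v, fm (k *ᵥ v) v = 0) :
    ∃ g ∈ spGL 2 F, ∀ k : Matrix I2 I2 F, k ∈ K ↔ ∃ a b : F,
      k * (g : Matrix I2 I2 F) = (g : Matrix I2 I2 F) * (algebraMap F _ a + b • kst c) := by
  have s := symm_two h2
  obtain ⟨κ, hκ, hsq, hspan⟩ := exists_kappa h2 hK hc
  have hact : ∀ v, κ *ᵥ (κ *ᵥ v) = κ *ᵥ v + c • v := by
    intro v
    rw [mulVec_mulVec, hsq, add_mulVec, Algebra.algebraMap_eq_smul_one, smul_mulVec, one_mulVec]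
  have hsa : ∀ u v, fm (κ *ᵥ u) v = fm u (κ *ᵥ v) := hs κ hκ
  have haa : ∀ v, fm (κ *ᵥ v) v = 0 := ha κ hκ
  set v : I2 → F := Pi.single (Sum.inl 0) 1 with hv
  have hv0 : v ≠ 0 := by
    intro h
    have := congrFun h (Sum.inl 0)
    rw [hv] at this
    simp at this
  obtain ⟨w₀, hw₀⟩ := exists_pairing hv0
  set p := fm (κ *ᵥ v) w₀ with hp
  have hpc : p ^ 2 + p + c ≠ 0 := by
    intro h0
    apply hc p
    linear_combination h0 - c * h2
  set β := (p ^ 2 + p + c)⁻¹ with hβ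
  have hβ1 : β * (p ^ 2 + p + c) = 1 := inv_mul_cancel₀ hpc
  set w : I2 → F := (β * p) • w₀ + β • (κ *ᵥ w₀) with hw
  have hvw : fm v w = 0 := by
    rw [hw, sympForm_add_right, sympForm_smul_right, sympForm_smul_right, ← hsa, hw₀, ← hp]
    linear_combination (β * p) * h2
  have hkvw : fm (κ *ᵥ v) w = 1 := by
    rw [hw, sympForm_add_right, sympForm_smul_right, sympForm_smul_right, ← hsa, hact, sympForm_add_left,
      sympForm_smul_left, hw₀, ← hp]
    linear_combination hβ1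
  obtain ⟨g, hg, e1, e2, e3, e4⟩ := Fr.exists_sp h2 (x₀ := v) (x₁ := κ *ᵥ v + v) (y₀ := κ *ᵥ w) (y₁ := w)
    { h00 := by rw [← hsa]; exact hkvw
      h11 := by rw [sympForm_add_left, hkvw, hvw, add_zero]
      hxx := by rw [sympForm_add_right, sympForm_self, add_zero, s]; exact haa v
      hyy := haa w
      h01 := hvw
      h10 := by
        rw [sympForm_add_left, ← hsa, hact, sympForm_add_left, sympForm_smul_left, hvw, ← hsa, hkvw]
        linear_combination h2 }
  have hcomm : κ * (g : Matrix I2 I2 F) = (g : Matrix I2 I2 F) * kst c := by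
    apply ext_col
    rintro (j | j)
    · rw [← mulVec_mulVec, ← mulVec_mulVec, kst_col]
      fin_cases j
      · show κ *ᵥ ((g : Matrix I2 I2 F) *ᵥ Pi.single (Sum.inl 0) 1) =
          (g : Matrix I2 I2 F) *ᵥ (Pi.single (Sum.inl 0) 1 + Pi.single (Sum.inl 1) 1)
        rw [mulVec_add, e1, e2]
        have h5 : v + v = 0 := by rw [← two_smul F v, h2, zero_smul]
        calc κ *ᵥ v = κ *ᵥ v + (v + v) := by rw [h5, add_zero]
          _ = v + (κ *ᵥ v + v) := by abel
      · show κ *ᵥ ((g : Matrix I2 I2 F) *ᵥ Pi.single (Sum.inl 1) 1) =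
          (g : Matrix I2 I2 F) *ᵥ (c • Pi.single (Sum.inl 0) 1)
        rw [mulVec_smul, e1, e2, mulVec_add, hact]
        have h5 : κ *ᵥ v + κ *ᵥ v = 0 := by rw [← two_smul F (κ *ᵥ v), h2, zero_smul]
        calc κ *ᵥ v + c • v + κ *ᵥ v = (κ *ᵥ v + κ *ᵥ v) + c • v := by abel
          _ = c • v := by rw [h5, zero_add]
    · rw [← mulVec_mulVec, ← mulVec_mulVec, kst_col]
      fin_cases j
      · show κ *ᵥ ((g : Matrix I2 I2 F) *ᵥ Pi.single (Sum.inr 0) 1) =
          (g : Matrix I2 I2 F) *ᵥ (Pi.single (Sum.inr 0) 1 + c • Pi.single (Sum.inr 1) 1)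
        rw [mulVec_add, mulVec_smul, e3, e4, hact]
      · show κ *ᵥ ((g : Matrix I2 I2 F) *ᵥ Pi.single (Sum.inr 1) 1) =
          (g : Matrix I2 I2 F) *ᵥ Pi.single (Sum.inr 0) 1
        rw [e3, e4]
  refine ⟨g, hg, fun k => ⟨fun hk => ?_, ?_⟩⟩
  · obtain ⟨a, b, rfl⟩ := hspan k hk
    refine ⟨a, b, ?_⟩
    rw [add_mul, mul_add, smul_mul_assoc, hcomm, mul_smul_comm, Algebra.commutes]
  · rintro ⟨a, b, hab⟩
    have h5 : k = algebraMap F _ a + b • κ := by
      have h6 : (algebraMap F _ a + b • κ) * (g : Matrix I2 I2 F) =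
          (g : Matrix I2 I2 F) * (algebraMap F _ a + b • kst c) := by
        rw [add_mul, mul_add, smul_mul_assoc, hcomm, mul_smul_comm, Algebra.commutes]
      have h7 := hab.trans h6.symm
      have h8 := congrArg (fun X => X * ((g⁻¹ : GL I2 F) : Matrix I2 I2 F)) h7
      simpa [mul_assoc, ← Units.val_mul] using h8
    rw [h5]
    exact K.add_mem (K.algebraMap_mem a) (K.smul_mem hκ b)

theorem mem_subalgebraNormalizer {K : Subalgebra F (Matrix I2 I2 F)} {g : GL I2 F} :
    g ∈ subalgebraNormalizer K ↔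
      ∀ k : Matrix I2 I2 F, k ∈ K ↔ (g : Matrix I2 I2 F) * k * ((g⁻¹ : GL I2 F) : Matrix I2 I2 F) ∈ K := Iff.rfl

theorem cj_of_algebra {K K' : Subalgebra F (Matrix I2 I2 F)} {g : GL I2 F} (hg : g ∈ spGL 2 F)
    (h : ∀ k : Matrix I2 I2 F, k ∈ K ↔ (g : Matrix I2 I2 F) * k * ((g⁻¹ : GL I2 F) : Matrix I2 I2 F) ∈ K') :
    Cj (subalgebraNormalizer K) (subalgebraNormalizer K') := by
  refine ⟨g, hg, fun x => ?_⟩
  rw [mem_subalgebraNormalizer, mem_subalgebraNormalizer]
  have hgi : ((g⁻¹ : GL I2 F) : Matrix I2 I2 F) * (g : Matrix I2 I2 F) = 1 := by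
    rw [← Units.val_mul, inv_mul_cancel, Units.val_one]
  have hgi' : (g : Matrix I2 I2 F) * ((g⁻¹ : GL I2 F) : Matrix I2 I2 F) = 1 := by
    rw [← Units.val_mul, mul_inv_cancel, Units.val_one]
  constructor
  · intro hx k
    have h1 := h (((g⁻¹ : GL I2 F) : Matrix I2 I2 F) * k * (g : Matrix I2 I2 F))
    have h3 : (g : Matrix I2 I2 F) * (((g⁻¹ : GL I2 F) : Matrix I2 I2 F) * k * (g : Matrix I2 I2 F)) *
        ((g⁻¹ : GL I2 F) : Matrix I2 I2 F) = k := by
      simp only [mul_assoc, hgi', mul_one]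
      rw [← mul_assoc, hgi', one_mul]
    rw [h3] at h1
    rw [← h1, hx, h]
    have h4 : ((g * x * g⁻¹ : GL I2 F) : Matrix I2 I2 F) * k * (((g * x * g⁻¹)⁻¹ : GL I2 F) : Matrix I2 I2 F) =
        (g : Matrix I2 I2 F) * ((x : Matrix I2 I2 F) * (((g⁻¹ : GL I2 F) : Matrix I2 I2 F) * k * (g : Matrix I2 I2 F)) *
          ((x⁻¹ : GL I2 F) : Matrix I2 I2 F)) * ((g⁻¹ : GL I2 F) : Matrix I2 I2 F) := by
      simp only [_root_.mul_inv_rev, inv_inv, Units.val_mul, mul_assoc]
    rw [h4]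
  · intro hx k
    have h1 := hx ((g : Matrix I2 I2 F) * k * ((g⁻¹ : GL I2 F) : Matrix I2 I2 F))
    rw [← h] at h1
    rw [h1, h]
    have h4 : ((g * x * g⁻¹ : GL I2 F) : Matrix I2 I2 F) *
        ((g : Matrix I2 I2 F) * k * ((g⁻¹ : GL I2 F) : Matrix I2 I2 F)) *
        (((g * x * g⁻¹)⁻¹ : GL I2 F) : Matrix I2 I2 F) =
        (g : Matrix I2 I2 F) * ((x : Matrix I2 I2 F) * k * ((x⁻¹ : GL I2 F) : Matrix I2 I2 F)) *
          ((g⁻¹ : GL I2 F) : Matrix I2 I2 F) := by
      simp only [_root_.mul_inv_rev, inv_inv, Units.val_mul, mul_assoc]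
      have e1 : ∀ X : Matrix I2 I2 F, ((g⁻¹ : GL I2 F) : Matrix I2 I2 F) * ((g : Matrix I2 I2 F) * X) = X := fun X => by
        rw [← mul_assoc, hgi, one_mul]
      simp only [e1]
    rw [h4]

theorem cj_field [Finite F] (h2 : (2 : F) = 0) {K K' : Subalgebra F (Matrix I2 I2 F)}
    (hK : IsFieldSubalgebra 2 K) (hs : IsSelfAdjointFor fm K) (ha : ∀ k ∈ K, ∀ v, fm (k *ᵥ v) v = 0)
    (hK' : IsFieldSubalgebra 2 K') (hs' : IsSelfAdjointFor fm K') (ha' : ∀ k ∈ K', ∀ v, fm (k *ᵥ v) v = 0) :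
    Cj (subalgebraNormalizer K) (subalgebraNormalizer K') := by
  obtain ⟨c, hc⟩ := exists_not_wp (F := F) h2
  obtain ⟨g, hg, h⟩ := exists_std_field h2 hc hK hs ha
  obtain ⟨g', hg', h'⟩ := exists_std_field h2 hc hK' hs' ha'
  refine cj_of_algebra (g := g' * g⁻¹) (mul_mem hg' (inv_mem hg)) fun k => ?_
  rw [h, h']
  refine exists_congr fun a => exists_congr fun b => ?_
  have hgi : ((g⁻¹ : GL I2 F) : Matrix I2 I2 F) * (g : Matrix I2 I2 F) = 1 := by
    rw [← Units.val_mul, inv_mul_cancel, Units.val_one]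
  have hgi' : (g : Matrix I2 I2 F) * ((g⁻¹ : GL I2 F) : Matrix I2 I2 F) = 1 := by
    rw [← Units.val_mul, mul_inv_cancel, Units.val_one]
  have hgj : ((g'⁻¹ : GL I2 F) : Matrix I2 I2 F) * (g' : Matrix I2 I2 F) = 1 := by
    rw [← Units.val_mul, inv_mul_cancel, Units.val_one]
  have e1 : ((g' * g⁻¹ : GL I2 F) : Matrix I2 I2 F) * k * (((g' * g⁻¹)⁻¹ : GL I2 F) : Matrix I2 I2 F) *
      (g' : Matrix I2 I2 F) = (g' : Matrix I2 I2 F) * (((g⁻¹ : GL I2 F) : Matrix I2 I2 F) * (k * (g : Matrix I2 I2 F))) := by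
    simp only [_root_.mul_inv_rev, inv_inv, Units.val_mul, mul_assoc, hgj, mul_one]
  rw [e1]
  constructor
  · intro h3
    rw [h3, ← mul_assoc ((g⁻¹ : GL I2 F) : Matrix I2 I2 F), hgi, one_mul]
  · intro h3
    have h4 := congrArg (fun X => (g : Matrix I2 I2 F) * (((g'⁻¹ : GL I2 F) : Matrix I2 I2 F) * X)) h3
    rw [← mul_assoc ((g'⁻¹ : GL I2 F) : Matrix I2 I2 F), hgj, one_mul,
      ← mul_assoc ((g'⁻¹ : GL I2 F) : Matrix I2 I2 F) (g' : Matrix I2 I2 F), hgj, one_mul, ← mul_assoc, hgi', one_mul] at h4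
    exact h4

end field

end Cfsg.Agent.H124.BR.Sp4
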