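import Cfsg.Agent.H124.BR.SpConj2

/-!
# Conjugacy of geometric subgroups of `Sp_4(F)`, `|F|` even: quadratic forms and subfields (helper124)

* `quad_normal` : the quadratic forms with polar form `f` form at most two orbits under `Sp_4(F)`;
* `cj_quad` : hence two classes of orthogonal groups;
* `cj_subfield` : one class of subfield groups for every subfield.
-/

set_option autoImplicit false

namespace Cfsg.Agent.H124.BR.Sp4

open Cfsg Cfsg.Geo Matrix Cfsg.Agent.ClassicalGeometry.SympBasic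
open Module (Basis finrank)
open scoped MatrixGroups

universe u

variable {F : Type u} [Field F]

local notation "fm" => sympForm 2 F

/-! ### quadratic forms -/

/-- the value of `Q` on a linear combination -/
theorem quad_add {Q : (I2 → F) → F} (hp : ∀ u v, QuadraticMap.polar Q u v = fm u v) (u v : I2 → F) :
    Q (u + v) = Q u + Q v + fm u v := by
  have := hp u v
  unfold QuadraticMap.polar at this
  linear_combination this

/-- equality of two forms -/
theorem quad_ext {Q Q' : (I2 → F) → F} (hs : ∀ (c : F) v, Q (c • v) = c ^ 2 * Q v)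
    (hs' : ∀ (c : F) v, Q' (c • v) = c ^ 2 * Q' v) (hp : ∀ u v, Q (u + v) - Q u - Q v = Q' (u + v) - Q' u - Q' v)
    (h : ∀ i, Q (Pi.single i 1) = Q' (Pi.single i 1)) : Q = Q' := by
  let D : (I2 → F) →+ F :=
    { toFun := fun v => Q v - Q' v
      map_zero' := by
        have h1 := hs 0 0
        have h3 := hs' 0 0
        rw [zero_smul] at h1 h3
        linear_combination h1 - h3
      map_add' := fun u v => by linear_combination hp u v }
  have hD : ∀ v, D v = 0 := by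
    intro v
    have h1 : v = ∑ i, Pi.single i (v i) := (Finset.univ_sum_single v).symm
    rw [h1, map_sum]
    refine Finset.sum_eq_zero fun i _ => ?_
    have h3 : (Pi.single i (v i) : I2 → F) = v i • Pi.single i 1 := by
      rw [← Pi.single_smul, smul_eq_mul, mul_one]
    show Q (Pi.single i (v i)) - Q' (Pi.single i (v i)) = 0
    rw [h3, hs, hs', h, sub_self]
  funext v
  exact sub_eq_zero.1 (hD v)

theorem exists_quad_frame [Finite F] (h2 : (2 : F) = 0) {c : F} (hc : ∀ t : F, t ^ 2 + t ≠ c) {Q : (I2 → F) → F}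
    (hs : ∀ (c : F) v, Q (c • v) = c ^ 2 * Q v) (hp : ∀ u v, QuadraticMap.polar Q u v = fm u v) :
    ∃ x₀ x₁ y₀ y₁, Fr x₀ x₁ y₀ y₁ ∧ Q x₀ = 0 ∧ Q y₀ = 0 ∧ ((Q x₁ = 0 ∧ Q y₁ = 0) ∨ (Q x₁ = 1 ∧ Q y₁ = c)) := by
  have s := symm_two h2
  have hadd := quad_add hp
  -- a singular vector
  have h1 : ∃ x₀ : I2 → F, x₀ ≠ 0 ∧ Q x₀ = 0 := by
    set e₁ : I2 → F := Pi.single (Sum.inl 0) 1
    set e₂ : I2 → F := Pi.single (Sum.inl 1) 1
    have he : fm e₁ e₂ = 0 := single_inl _ _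
    obtain ⟨a, ha⟩ := exists_sqrt h2 (Q e₁)
    obtain ⟨b, hb⟩ := exists_sqrt h2 (Q e₂)
    by_cases ha0 : a = 0
    · refine ⟨e₁, ?_, ?_⟩
      · intro h
        have := congrFun h (Sum.inl 0)
        simp [e₁] at this
      · rw [← ha, ha0]; ring
    · refine ⟨b • e₁ + a • e₂, ?_, ?_⟩
      · intro h
        have := congrFun h (Sum.inl 1)
        simp [e₁, e₂] at this
        exact ha0 this
      · rw [hadd, hs, hs, sympForm_smul_left, sympForm_smul_right, he, ← ha, ← hb]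
        linear_combination (b ^ 2 * a ^ 2) * h2
  obtain ⟨x₀, hx0, hQx⟩ := h1
  obtain ⟨w, hw⟩ := exists_pairing hx0
  set y₀ := w + Q w • x₀ with hy0
  have hQy : Q y₀ = 0 := by
    rw [hy0, hadd, hs, hQx, sympForm_smul_right, s w, hw]
    linear_combination (Q w) * h2
  have hxy : fm x₀ y₀ = 1 := by
    rw [hy0, sympForm_add_right, sympForm_smul_right, sympForm_self, hw]
    ring
  obtain ⟨x₁, y₁, hF⟩ := extend_pair h2 hxy
  -- changing the second plane
  have hmod : ∀ a b c d : F, a * d + b * c = 1 → Fr x₀ (a • x₁ + b • y₁) y₀ (c • x₁ + d • y₁) := by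
    intro a b c d hdet
    have e0 : fm y₁ x₁ = 1 := (s _ _).trans hF.h11
    refine ⟨hF.h00, ?_, ?_, ?_, ?_, ?_⟩
    · rw [sympForm_add_left, sympForm_add_right, sympForm_add_right]
      simp only [sympForm_smul_left, sympForm_smul_right, sympForm_self, hF.h11, e0]
      linear_combination hdet
    · rw [sympForm_add_right, sympForm_smul_right, sympForm_smul_right, hF.hxx, hF.h01]
      ring
    · rw [sympForm_add_right, sympForm_smul_right, sympForm_smul_right, hF.hyy, s y₀ x₁, hF.h10]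
      ring
    · rw [sympForm_add_right, sympForm_smul_right, sympForm_smul_right, hF.hxx, hF.h01]
      ring
    · rw [sympForm_add_left, sympForm_smul_left, sympForm_smul_left, hF.h10, s y₁ y₀, hF.hyy]
      ring
  have hQc : ∀ a b : F, Q (a • x₁ + b • y₁) = a ^ 2 * Q x₁ + b ^ 2 * Q y₁ + a * b := by
    intro a b
    rw [hadd, hs, hs, sympForm_smul_left, sympForm_smul_right, hF.h11]
    ring
  by_cases hα : Q x₁ = 0
  · refine ⟨x₀, (1 : F) • x₁ + (0 : F) • y₁, y₀, Q y₁ • x₁ + (1 : F) • y₁, hmod _ _ _ _ (by ring), hQx, hQy, Or.inl ⟨?_, ?_⟩⟩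
    · rw [hQc, hα]; ring
    · rw [hQc, hα]
      linear_combination (Q y₁) * h2
  · obtain ⟨r, hr⟩ := exists_sqrt h2 (Q x₁)
    have hr0 : r ≠ 0 := by
      rintro rfl
      apply hα
      rw [← hr]; ring
    set d := Q x₁ * Q y₁ with hd
    have hri : r⁻¹ ^ 2 * Q x₁ = 1 := by rw [← hr]; field_simp
    have hrd : r ^ 2 * Q y₁ = d := by rw [hd, hr]
    by_cases hwp : ∃ t : F, t ^ 2 + t = d
    · obtain ⟨t, ht⟩ := hwp
      refine ⟨x₀, ((1 + t) * r⁻¹) • x₁ + r • y₁, y₀, (t * r⁻¹) • x₁ + r • y₁, hmod _ _ _ _ ?_, hQx, hQy, Or.inl ⟨?_, ?_⟩⟩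
      · field_simp
        linear_combination t * h2
      · rw [hQc]
        have e1 : (1 + t) * r⁻¹ * r = 1 + t := by field_simp
        rw [e1, mul_pow, mul_assoc, hri, hrd, ← ht]
        linear_combination (1 + 2 * t + t ^ 2) * h2
      · rw [hQc]
        have e1 : t * r⁻¹ * r = t := by field_simp
        rw [e1, mul_pow, mul_assoc, hri, hrd, ← ht]
        linear_combination (t + t ^ 2) * h2
    · push Not at hwp
      obtain ⟨t, ht⟩ := as_sum h2 hwp hc
      refine ⟨x₀, r⁻¹ • x₁ + (0 : F) • y₁, y₀, (t * r⁻¹) • x₁ + r • y₁, hmod _ _ _ _ ?_, hQx, hQy, Or.inr ⟨?_, ?_⟩⟩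
      · field_simp
        ring
      · rw [hQc]
        linear_combination hri
      · rw [hQc]
        have e1 : t * r⁻¹ * r = t := by field_simp
        rw [e1, mul_pow, mul_assoc, hri, hrd]
        linear_combination ht + d * h2

/-- the standard forms -/
def Qst (a b : F) (v : I2 → F) : F :=
  v (Sum.inl 0) * v (Sum.inr 0) + v (Sum.inl 1) * v (Sum.inr 1) + a * v (Sum.inl 1) ^ 2 + b * v (Sum.inr 1) ^ 2

theorem quad_normal [Finite F] (h2 : (2 : F) = 0) {c : F} (hc : ∀ t : F, t ^ 2 + t ≠ c) {Q : (I2 → F) → F}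
    (hs : ∀ (c : F) v, Q (c • v) = c ^ 2 * Q v) (hp : ∀ u v, QuadraticMap.polar Q u v = fm u v) :
    ∃ g ∈ spGL 2 F, (∀ v, Q ((g : Matrix I2 I2 F) *ᵥ v) = Qst 0 0 v) ∨ ∀ v, Q ((g : Matrix I2 I2 F) *ᵥ v) = Qst 1 c v := by
  obtain ⟨x₀, x₁, y₀, y₁, hF, hx0, hy0, h⟩ := exists_quad_frame h2 hc hs hp
  obtain ⟨g, hg, e1, e2, e3, e4⟩ := hF.exists_sp h2
  have key : ∀ a b : F, Q x₁ = a → Q y₁ = b → ∀ v, Q ((g : Matrix I2 I2 F) *ᵥ v) = Qst a b v := by
    intro a b ha hb v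
    have h3 : (fun v => Q ((g : Matrix I2 I2 F) *ᵥ v)) = Qst a b := by
      apply quad_ext
      · intro c v
        rw [mulVec_smul, hs]
      · intro c v
        simp only [Qst, Pi.smul_apply, smul_eq_mul]
        ring
      · intro u v
        rw [mulVec_add, quad_add hp, mem_spGL.1 hg]
        have h5 : fm u v = Qst a b (u + v) - Qst a b u - Qst a b v := by
          rw [sympForm_eq_sum, Fin.sum_univ_two]
          simp only [Qst, Pi.add_apply]
          linear_combination (-(u (Sum.inl 0) * v (Sum.inr 0)) - (u (Sum.inl 1) * v (Sum.inr 1)) -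
            a * u (Sum.inl 1) * v (Sum.inl 1) - b * u (Sum.inr 1) * v (Sum.inr 1)) * h2
        rw [← h5]
        ring
      · rintro (i | i) <;> fin_cases i
        · show Q ((g : Matrix I2 I2 F) *ᵥ Pi.single (Sum.inl 0) 1) = _
          rw [e1, hx0]
          simp [Qst]
        · show Q ((g : Matrix I2 I2 F) *ᵥ Pi.single (Sum.inl 1) 1) = _
          rw [e2, ha]
          simp [Qst]
        · show Q ((g : Matrix I2 I2 F) *ᵥ Pi.single (Sum.inr 0) 1) = _
          rw [e3, hy0]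
          simp [Qst]
        · show Q ((g : Matrix I2 I2 F) *ᵥ Pi.single (Sum.inr 1) 1) = _
          rw [e4, hb]
          simp [Qst]
    exact congrFun h3 v
  rcases h with ⟨h3, h4⟩ | ⟨h3, h4⟩
  · exact ⟨g, hg, Or.inl (key _ _ h3 h4)⟩
  · exact ⟨g, hg, Or.inr (key _ _ h3 h4)⟩

theorem mem_quadSim {Q : (I2 → F) → F} {g : GL I2 F} :
    g ∈ quadSimilarityGroup Q ↔ ∃ c : Fˣ, ∀ v, Q ((g : Matrix I2 I2 F) *ᵥ v) = (c : F) * Q v := Iff.rfl

theorem cj_of_quad {Q Q' : (I2 → F) → F} {g : GL I2 F} (hg : g ∈ spGL 2 F)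
    (h : ∀ v, Q' ((g : Matrix I2 I2 F) *ᵥ v) = Q v) : Cj (quadSimilarityGroup Q) (quadSimilarityGroup Q') := by
  have h' : ∀ v, Q (((g⁻¹ : GL I2 F) : Matrix I2 I2 F) *ᵥ v) = Q' v := fun v => by rw [← h, mulVec_mul_inv]
  refine ⟨g, hg, fun x => ?_⟩
  rw [mem_quadSim, mem_quadSim]
  refine exists_congr fun c => ⟨fun hx v => ?_, fun hx v => ?_⟩
  · rw [conj_mulVec, h, hx, h']
  · have h1 := hx ((g : Matrix I2 I2 F) *ᵥ v)
    rw [conj_mulVec, mulVec_inv_mul, h, h] at h1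
    exact h1

/-- two labels for the orthogonal groups -/
def QLab (c : F) (b : Bool) (M : Subgroup (GL I2 F)) : Prop :=
  Cj (quadSimilarityGroup (if b then Qst (0 : F) 0 else Qst 1 c)) M

theorem qlab [Finite F] (h2 : (2 : F) = 0) {c : F} (hc : ∀ t : F, t ^ 2 + t ≠ c) {Q : (I2 → F) → F}
    (hs : ∀ (c : F) v, Q (c • v) = c ^ 2 * Q v) (hp : ∀ u v, QuadraticMap.polar Q u v = fm u v) :
    ∃ b, QLab c b (quadSimilarityGroup Q) := by
  obtain ⟨g, hg, h | h⟩ := quad_normal h2 hc hs hp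
  · exact ⟨true, cj_of_quad hg h⟩
  · exact ⟨false, cj_of_quad hg h⟩

/-! ### subfields -/

section subfield

variable {F₀ : Subfield F} {ζ : F} {P : GL I2 F}

/-- a vector of the `F₀`-lattice `P F₀^4` -/
def Lt (F₀ : Subfield F) (P : GL I2 F) (x : I2 → F) : Prop :=
  ∃ u : I2 → F, (∀ i, u i ∈ F₀) ∧ x = (P : Matrix I2 I2 F) *ᵥ u

theorem Lt.add {x y : I2 → F} (hx : Lt F₀ P x) (hy : Lt F₀ P y) : Lt F₀ P (x + y) := by
  obtain ⟨u, hu, rfl⟩ := hx
  obtain ⟨v, hv, rfl⟩ := hy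
  exact ⟨u + v, fun i => F₀.add_mem (hu i) (hv i), by rw [mulVec_add]⟩

theorem Lt.smul {x : I2 → F} (hx : Lt F₀ P x) {a : F} (ha : a ∈ F₀) : Lt F₀ P (a • x) := by
  obtain ⟨u, hu, rfl⟩ := hx
  exact ⟨a • u, fun i => F₀.mul_mem ha (hu i), by rw [mulVec_smul]⟩

theorem Lt.form (h : IsFormRationalStructure fm F₀ ζ P) {x y : I2 → F} (hx : Lt F₀ P x) (hy : Lt F₀ P y) :
    ζ * fm x y ∈ F₀ := by
  obtain ⟨u, hu, rfl⟩ := hx
  obtain ⟨v, hv, rfl⟩ := hy
  exact h u v hu hv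

theorem lt_basis (i : I2) : Lt F₀ P ((P : Matrix I2 I2 F) *ᵥ Pi.single i 1) := by
  refine ⟨Pi.single i 1, fun j => ?_, rfl⟩
  by_cases h : j = i
  · subst h
    rw [Pi.single_eq_same]
    exact F₀.one_mem
  · rw [Pi.single_eq_of_ne h]
    exact F₀.zero_mem

/-- the lattice spans -/
theorem span_lt {S : Submodule F (I2 → F)} (h : ∀ x, Lt F₀ P x → x ∈ S) : S = ⊤ := by
  rw [eq_top_iff]
  intro v _
  have h1 : v = (P : Matrix I2 I2 F) *ᵥ (((P⁻¹ : GL I2 F) : Matrix I2 I2 F) *ᵥ v) := (mulVec_mul_inv P v).symm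
  set u := ((P⁻¹ : GL I2 F) : Matrix I2 I2 F) *ᵥ v
  have h3 : u = ∑ i, u i • Pi.single i 1 := by
    rw [← Finset.univ_sum_single u]
    refine Finset.sum_congr rfl fun i _ => ?_
    rw [← Pi.single_smul, smul_eq_mul, mul_one]
    simp
  rw [h1, h3, Matrix.mulVec_sum]
  refine Submodule.sum_mem _ fun i _ => ?_
  rw [mulVec_smul]
  exact S.smul_mem _ (h _ (lt_basis i))

/-- pairing inside the lattice -/
theorem lt_pair (hζ : ζ ≠ 0) (h : IsFormRationalStructure fm F₀ ζ P) {x : I2 → F} (hx : Lt F₀ P x) (hx0 : x ≠ 0) :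
    ∃ y, Lt F₀ P y ∧ ζ * fm x y = 1 := by
  have h1 : ∃ y, Lt F₀ P y ∧ fm x y ≠ 0 := by
    by_contra hcon
    push Not at hcon
    apply hx0
    have h3 : LinearMap.ker (sympBilin 2 F x) = ⊤ := span_lt (F₀ := F₀) (P := P) fun y hy => by
      rw [LinearMap.mem_ker, sympBilin_apply]
      exact hcon y hy
    apply eq_zero_of_forall_sympForm_right
    intro v
    have h4 : v ∈ LinearMap.ker (sympBilin 2 F x) := by rw [h3]; trivial
    exact h4
  obtain ⟨y, hy, hxy⟩ := h1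
  refine ⟨(ζ * fm x y)⁻¹ • y, hy.smul (F₀.inv_mem (hx.form h hy)), ?_⟩
  rw [sympForm_smul_right]
  field_simp

theorem exists_lt_frame (h2 : (2 : F) = 0) (hζ : ζ ≠ 0) (h : IsFormRationalStructure fm F₀ ζ P) :
    ∃ x₀ x₁ y₀ y₁, (Lt F₀ P x₀ ∧ Lt F₀ P x₁ ∧ Lt F₀ P y₀ ∧ Lt F₀ P y₁) ∧ ζ * fm x₀ y₀ = 1 ∧ ζ * fm x₁ y₁ = 1 ∧
      fm x₀ x₁ = 0 ∧ fm y₀ y₁ = 0 ∧ fm x₀ y₁ = 0 ∧ fm x₁ y₀ = 0 := by
  have s := symm_two h2
  set x₀ := (P : Matrix I2 I2 F) *ᵥ Pi.single (Sum.inl 0) 1 with hx0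
  have hL0 : Lt F₀ P x₀ := lt_basis _
  have hne : x₀ ≠ 0 := by
    intro h0
    have h1 := mulVec_inv_mul P (Pi.single (Sum.inl 0) 1)
    rw [← hx0, h0, mulVec_zero] at h1
    have := congrFun h1 (Sum.inl 0)
    simp at this
  obtain ⟨y₀, hLy, hxy⟩ := lt_pair hζ h hL0 hne
  -- projection
  let pr : (I2 → F) → (I2 → F) := fun u => u + ((ζ * fm u y₀) • x₀ + (ζ * fm u x₀) • y₀)
  have hprL : ∀ u, Lt F₀ P u → Lt F₀ P (pr u) := fun u hu =>
    hu.add ((hL0.smul (hu.form h hLy)).add (hLy.smul (hu.form h hL0)))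
  have hpr : ∀ u, fm x₀ (pr u) = 0 ∧ fm y₀ (pr u) = 0 := by
    intro u
    constructor
    · show fm x₀ (u + ((ζ * fm u y₀) • x₀ + (ζ * fm u x₀) • y₀)) = 0
      rw [sympForm_add_right, sympForm_add_right, sympForm_smul_right, sympForm_smul_right, sympForm_self, s x₀ u]
      linear_combination (fm u x₀) * hxy + (fm u x₀) * h2
    · show fm y₀ (u + ((ζ * fm u y₀) • x₀ + (ζ * fm u x₀) • y₀)) = 0
      rw [sympForm_add_right, sympForm_add_right, sympForm_smul_right, sympForm_smul_right, sympForm_self,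
        s y₀ x₀, s y₀ u]
      linear_combination (fm u y₀) * hxy + (fm u y₀) * h2
  have h1 : ∃ u, Lt F₀ P u ∧ u ∉ Submodule.span F {x₀, y₀} := by
    by_contra hcon
    push Not at hcon
    have htop : Submodule.span F {x₀, y₀} = ⊤ := span_lt hcon
    have h3 := finrank_range_le_card (R := F) (b := ![x₀, y₀])
    have h4 : Set.range ![x₀, y₀] = ({x₀, y₀} : Set (I2 → F)) := by
      rw [Matrix.range_cons, Matrix.range_cons, Matrix.range_empty, Set.union_empty]
      rfl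
    rw [Set.finrank, h4, htop, finrank_top, Module.finrank_fintype_fun_eq_card, Fintype.card_fin] at h3
    have h5 : Fintype.card I2 = 4 := rfl
    omega
  obtain ⟨u, huL, hu⟩ := h1
  have hu0 : pr u ≠ 0 := by
    intro h0
    apply hu
    have h3 : u = -((ζ * fm u y₀) • x₀ + (ζ * fm u x₀) • y₀) := eq_neg_of_add_eq_zero_left h0
    rw [h3]
    refine neg_mem (add_mem (Submodule.smul_mem _ _ (Submodule.subset_span (by simp)))
      (Submodule.smul_mem _ _ (Submodule.subset_span (by simp))))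
  obtain ⟨z, hzL, hz⟩ := lt_pair hζ h (hprL u huL) hu0
  refine ⟨x₀, pr u, y₀, pr z, ⟨hL0, hprL u huL, hLy, hprL z hzL⟩, hxy, ?_, (hpr u).1, (hpr z).2, (hpr z).1,
    (s _ _).trans (hpr u).2⟩
  have e1 : fm (pr u) (pr z) = fm (pr u) z := by
    show fm (pr u) (z + ((ζ * fm z y₀) • x₀ + (ζ * fm z x₀) • y₀)) = _
    rw [sympForm_add_right, sympForm_add_right, sympForm_smul_right, sympForm_smul_right, s (pr u) x₀, (hpr u).1,
      s (pr u) y₀, (hpr u).2]
    ring
  rw [e1, hz]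

theorem cj_of_conj {M : Subgroup (GL I2 F)} {g : GL I2 F} (hg : g ∈ spGL 2 F) :
    Cj M (M.map (MulAut.conj g).toMonoidHom) := by
  refine ⟨g, hg, fun x => ?_⟩
  rw [Subgroup.mem_map]
  constructor
  · intro hx
    exact ⟨x, hx, rfl⟩
  · rintro ⟨y, hy, hxy⟩
    have h1 : g * y * g⁻¹ = g * x * g⁻¹ := hxy
    have h3 : y = x := by simpa using h1
    exact h3 ▸ hy

theorem cj_subfield [Finite F] (h2 : (2 : F) = 0) (hζ : ζ ≠ 0) (h : IsFormRationalStructure fm F₀ ζ P) :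
    Cj (subfieldSubgroup F₀ (1 : GL I2 F)) (subfieldSubgroup F₀ P) := by
  obtain ⟨x₀, x₁, y₀, y₁, ⟨⟨a0, ha0, e0⟩, ⟨a1, ha1, e1⟩, ⟨b0, hb0, e2⟩, ⟨b1, hb1, e3⟩⟩, h00, h11, hxx, hyy, h01, h10⟩ :=
    exists_lt_frame h2 hζ h
  obtain ⟨l, hl⟩ := exists_sqrt h2 ζ
  have hl0 : l ≠ 0 := by
    rintro rfl
    apply hζ
    rw [← hl]
    ring
  have hsc : ∀ u v, fm (l • u) (l • v) = ζ * fm u v := fun u v => by
    rw [sympForm_smul_left, sympForm_smul_right, ← hl]
    ring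
  obtain ⟨g, hg, f1, f2, f3, f4⟩ := Fr.exists_sp h2 (x₀ := l • x₀) (x₁ := l • x₁) (y₀ := l • y₀) (y₁ := l • y₁)
    ⟨by rw [hsc, h00], by rw [hsc, h11], by rw [hsc, hxx, mul_zero], by rw [hsc, hyy, mul_zero],
      by rw [hsc, h01, mul_zero], by rw [hsc, h10, mul_zero]⟩
  -- the matrix over `F₀`
  let A : Matrix I2 I2 F := Matrix.of fun i j => Sum.elim ![a0, a1] ![b0, b1] j i
  have hA : ∀ i j, A i j ∈ F₀ := by
    intro i j
    show Sum.elim ![a0, a1] ![b0, b1] j i ∈ F₀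
    rcases j with j | j <;> fin_cases j
    · exact ha0 i
    · exact ha1 i
    · exact hb0 i
    · exact hb1 i
  have hAc : ∀ j, A *ᵥ Pi.single j 1 = Sum.elim ![a0, a1] ![b0, b1] j := by
    intro j
    rw [mulVec_single_one]
    rfl
  have hgA : (g : Matrix I2 I2 F) = l • ((P : Matrix I2 I2 F) * A) := by
    apply ext_col
    intro j
    rw [smul_mulVec, ← mulVec_mulVec, hAc]
    rcases j with j | j <;> fin_cases j
    · exact f1.trans (by rw [e0]; rfl)
    · exact f2.trans (by rw [e1]; rfl)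
    · exact f3.trans (by rw [e2]; rfl)
    · exact f4.trans (by rw [e3]; rfl)
  have hdet : A.det ≠ 0 := by
    intro h0
    have h3 : (g : Matrix I2 I2 F).det = 0 := by
      rw [hgA, det_smul, det_mul, h0, mul_zero, mul_zero]
    exact (g.isUnit.map (Matrix.detMonoidHom)).ne_zero h3
  let A₀ : Matrix I2 I2 F₀ := Matrix.of fun i j => ⟨A i j, hA i j⟩
  have hA₀ : A₀.map F₀.subtype = A := by
    ext i j
    rfl
  have hdet₀ : A₀.det ≠ 0 := by
    intro h0
    apply hdet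
    have h3 := RingHom.map_det F₀.subtype A₀
    rw [h0, map_zero] at h3
    rw [h3, ← hA₀]
    rfl
  let B₀ : GL I2 F₀ := GeneralLinearGroup.mkOfDetNeZero A₀ hdet₀
  let B : GL I2 F := GeneralLinearGroup.map (F₀.subtype : F₀ →+* F) B₀
  have hB : (B : Matrix I2 I2 F) = A := by
    ext i j
    rfl
  let z : GL I2 F := GeneralLinearGroup.mkOfDetNeZero (Matrix.scalar I2 l) (by
    rw [Matrix.scalar_apply, det_diagonal]
    exact Finset.prod_ne_zero_iff.2 fun _ _ => hl0)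
  have hzm : z ∈ scalars I2 F := by
    exact ⟨Units.mk0 l hl0, Units.ext rfl⟩
  have hgP : g = P * (B * z) := by
    apply Units.ext
    rw [Units.val_mul, Units.val_mul, hB, hgA]
    show l • ((P : Matrix I2 I2 F) * A) = (P : Matrix I2 I2 F) * (A * Matrix.scalar I2 l)
    rw [Matrix.scalar_apply, ← Matrix.smul_one_eq_diagonal, mul_smul_comm, mul_one, mul_smul_comm]
  have hm : B * z ∈ (GeneralLinearGroup.map (n := I2) (F₀.subtype : F₀ →+* F)).range ⊔ scalars I2 F :=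
    mul_mem (Subgroup.mem_sup_left ⟨B₀, rfl⟩) (Subgroup.mem_sup_right hzm)
  have hconj : ∀ (S : Subgroup (GL I2 F)) (x : GL I2 F), x ∈ S → S.map (MulAut.conj x).toMonoidHom = S := by
    intro S x hx
    ext y
    rw [Subgroup.mem_map]
    constructor
    · rintro ⟨w, hw, rfl⟩
      exact mul_mem (mul_mem hx hw) (inv_mem hx)
    · intro hy
      refine ⟨x⁻¹ * y * x, mul_mem (mul_mem (inv_mem hx) hy) hx, ?_⟩
      show x * (x⁻¹ * y * x) * x⁻¹ = y
      group
  have hmm : ∀ (S : Subgroup (GL I2 F)) (x y : GL I2 F), (S.map (MulAut.conj x).toMonoidHom).map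
      (MulAut.conj y).toMonoidHom = S.map (MulAut.conj (y * x)).toMonoidHom := by
    intro S x y
    rw [Subgroup.map_map]
    congr 1
    ext w
    simp [mul_assoc]
  have hfin : subfieldSubgroup F₀ P = (subfieldSubgroup F₀ (1 : GL I2 F)).map (MulAut.conj g).toMonoidHom := by
    unfold subfieldSubgroup
    rw [hmm, mul_one, hgP, ← hmm, hconj _ _ hm]
  rw [hfin]
  exact cj_of_conj hg

end subfield

end Cfsg.Agent.H124.BR.Sp4
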